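import Cfsg.Agent.H733.JM.Oct
import Cfsg.Agent.H733.JM.GLTwoThree
import Cfsg.Agent.H733.JM.ConjAbs
import Cfsg.Agent.H858.Loc5
import Cfsg.Agent.H859.SylEleven

/-!
# Elements of order 40 of `J4` (helper733)

* `centralizer_le` : an element of order 40 of `J4` generates its centralizer;
* `two_group` : 2-subgroups of the normalizer of a Sylow 11-subgroup contain at most one cyclic subgroup of order 8.
-/

set_option autoImplicit false

open Cfsg

namespace Cfsg.Agent.H733.JM.J4Forty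

open Subgroup Cfsg.Agent.OddOrderLocal.SylIn
open Cfsg.Agent.H858.Loc5 (F5 J card_F5 card_C J_le_C directProduct πJ ker_πJ J_le_norm)
open Cfsg.Agent.H858.Loc7 (Z oct_Z card_Z)

/-- the group `Spor.J4` -/
local notation "𝒢" => Cfsg.Spor.J4

instance finite_J4 : Finite 𝒢 := H858.FixJ4.facts.1

/-- the centralizer in `J` of an element of order 8 -/
theorem card_cent_J {a : 𝒢} (ha : a ∈ J) (ho : orderOf a = 8) : Nat.card (J ⊓ centralizer {a} : Subgroup 𝒢) ≤ 8 := by
  let _ : CommGroup Z := { (inferInstance : Group Z) with mul_comm := fun a b => Subtype.ext (oct_Z.comm a.2 b.2) }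
  set a' : J := ⟨a, ha⟩ with ha'
  have h8 : (πJ a') ^ 8 = 1 := by
    rw [← map_pow]
    have h1 : a' ^ 8 = 1 := Subtype.ext (by
      show a ^ 8 = 1
      rw [← ho, pow_orderOf_eq_one])
    rw [h1, map_one]
  have h2 : (πJ a') ^ 2 ≠ 1 := by
    intro h
    rw [← map_pow] at h
    have h1 : a' ^ 2 ∈ πJ.ker := h
    rw [ker_πJ, mem_subgroupOf] at h1
    have h3 : a ^ 2 * a ^ 2 = 1 := oct_Z.sq _ h1
    rw [← pow_add] at h3
    have h4 := orderOf_dvd_of_pow_eq_one h3
    rw [ho] at h4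
    norm_num at h4
  obtain ⟨h3, h4⟩ := Oct.main (Z := Z) card_Z (fun z => Subtype.ext (oct_Z.sq z z.2)) (α := πJ a') h8 h2
  set K : Subgroup J := centralizer {a'} with hK
  set φ : K →* MulAut Z := πJ.comp K.subtype with hφ
  have h5 : Nat.card φ.range ≤ 4 := by
    refine le_trans (Nat.card_le_card_of_injective _ (Subgroup.inclusion_injective ?_)) h4
    rintro _ ⟨k, rfl⟩
    rw [mem_centralizer_singleton_iff]
    show πJ k * πJ a' = πJ a' * πJ k
    rw [← map_mul, ← map_mul, mem_centralizer_singleton_iff.1 k.2]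
  have h6 : Nat.card φ.ker ≤ 2 := by
    have hz : ∀ k : φ.ker, (((k : K) : J) : 𝒢) ∈ Z := by
      intro k
      have h7 : ((k : K) : J) ∈ πJ.ker := k.2
      rw [ker_πJ, mem_subgroupOf] at h7
      exact h7
    refine le_trans (Nat.card_le_card_of_injective
      (fun k : φ.ker => (⟨⟨(((k : K) : J) : 𝒢), hz k⟩, ?_⟩ : {z : Z // πJ a' z = z})) ?_) h3
    · apply Subtype.ext
      show a * (((k : K) : J) : 𝒢) * a⁻¹ = (((k : K) : J) : 𝒢)
      have h7 : ((k : K) : J) * a' = a' * ((k : K) : J) := mem_centralizer_singleton_iff.1 (k : K).2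
      have h8 : (((k : K) : J) : 𝒢) * a = a * (((k : K) : J) : 𝒢) := congrArg Subtype.val h7
      rw [← h8, mul_inv_cancel_right]
    · intro k l hkl
      apply Subtype.ext
      apply Subtype.ext
      apply Subtype.ext
      exact congrArg (fun z : {z : Z // πJ a' z = z} => ((z : Z) : 𝒢)) hkl
  have h7 : Nat.card K ≤ 8 := by
    have h8 := φ.ker.card_mul_index
    rw [Subgroup.index_ker] at h8
    rw [← h8]
    calc _ ≤ 2 * 4 := Nat.mul_le_mul h6 h5
      _ = 8 := by norm_num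
  refine le_trans (Nat.card_le_card_of_injective
    (fun x : (J ⊓ centralizer {a} : Subgroup 𝒢) => (⟨⟨(x : 𝒢), (mem_inf.1 x.2).1⟩, ?_⟩ : K)) ?_) h7
  · rw [hK, mem_centralizer_singleton_iff]
    apply Subtype.ext
    exact mem_centralizer_singleton_iff.1 (mem_inf.1 x.2).2
  · intro x y hxy
    apply Subtype.ext
    exact congrArg (fun k : K => ((k : J) : 𝒢)) hxy

theorem cent_aux {s : 𝒢} (ho : orderOf s = 40) (h5 : zpowers (s ^ 8) = F5) : centralizer {s} ≤ zpowers s := by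
  have hC : ∀ c ∈ centralizer {s}, c ∈ centralizer (F5 : Set 𝒢) := by
    intro c hc
    rw [← h5, H858.NormC.centralizer_zpowers, mem_centralizer_singleton_iff]
    have h1 : Commute c s := mem_centralizer_singleton_iff.1 hc
    exact (h1.pow_right 8).eq
  obtain ⟨-, -, hcomm, -, hsup⟩ := directProduct
  have hdec : ∀ c ∈ centralizer {s}, ∃ x ∈ F5, ∃ y ∈ J, c = x * y := by
    intro c hc
    have h1 := hC c hc
    rw [← hsup] at h1
    exact H858.Abs.exists_mul_of_mem_sup (J_le_C.trans (H858.NormC.centralizer_le_normalizer _)) h1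
  have hF5 : ∀ x ∈ F5, x ^ 5 = 1 := by
    intro x hx
    have h1 : (⟨x, hx⟩ : F5) ^ Nat.card F5 = 1 := pow_card_eq_one'
    rw [card_F5] at h1
    exact congrArg Subtype.val h1
  obtain ⟨x, hx, y, hy, hs⟩ := hdec s (mem_centralizer_singleton_iff.2 rfl)
  have haJ : s ^ 5 ∈ J := by
    have h1 : Commute x y := hcomm x hx y hy
    rw [hs, h1.mul_pow, hF5 x hx, one_mul]
    exact J.pow_mem hy 5
  have hao : orderOf (s ^ 5) = 8 := by
    rw [orderOf_pow, ho]
    norm_num
  have hcard := card_cent_J haJ hao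
  have hle : Nat.card (centralizer {s} : Subgroup 𝒢) ≤ 40 := by
    have h1 : ∀ c : (centralizer {s} : Subgroup 𝒢), ∃ z : F5 × (J ⊓ centralizer {s ^ 5} : Subgroup 𝒢),
        (c : 𝒢) = (z.1 : 𝒢) * z.2 := by
      rintro ⟨c, hc⟩
      obtain ⟨x', hx', y', hy', hc'⟩ := hdec c hc
      refine ⟨(⟨x', hx'⟩, ⟨y', mem_inf.2 ⟨hy', mem_centralizer_singleton_iff.2 ?_⟩⟩), hc'⟩
      have h2 : Commute c (s ^ 5) := (show Commute c s from mem_centralizer_singleton_iff.1 hc).pow_right 5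
      have h3 : Commute x' (s ^ 5) := hcomm x' hx' _ haJ
      have h4 : y' = x'⁻¹ * c := by rw [hc']; group
      rw [h4]
      exact (h3.inv_left.mul_left h2).eq
    choose f hf using h1
    have h2 : Function.Injective f := by
      intro c c' h
      apply Subtype.ext
      rw [hf, hf, h]
    calc _ ≤ _ := Nat.card_le_card_of_injective f h2
      _ = 5 * Nat.card (J ⊓ centralizer {s ^ 5} : Subgroup 𝒢) := by rw [Nat.card_prod, card_F5]
      _ ≤ 5 * 8 := Nat.mul_le_mul_left 5 hcard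
      _ = 40 := by norm_num
  have hz : zpowers s ≤ centralizer {s} := zpowers_le.2 (mem_centralizer_singleton_iff.2 rfl)
  exact (Subgroup.eq_of_le_of_card_ge hz (by rw [Nat.card_zpowers, ho]; exact hle)).ge

/-- **an element of order 40 generates its centralizer** -/
theorem centralizer_le {t : 𝒢} (ho : orderOf t = 40) : centralizer {t} ≤ zpowers t := by
  have f5 : Fact (Nat.Prime 5) := ⟨by norm_num⟩
  have h5 : Nat.card (zpowers (t ^ 8)) = 5 := by
    rw [Nat.card_zpowers, orderOf_pow, ho]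
    norm_num
  obtain ⟨g, hg⟩ := H858.Abs.exists_conj_prime (p := 5) h5 card_F5 (by rw [H858.FixJ4.card_J4]; norm_num)
  have h1 : zpowers ((g * t * g⁻¹) ^ 8) = F5 := by
    rw [← hg, conj_pow]
    exact (MonoidHom.map_zpowers (MulAut.conj g).toMonoidHom (t ^ 8)).symm
  have h2 : orderOf (g * t * g⁻¹) = 40 := by
    rw [← ho]
    exact MulEquiv.orderOf_eq (MulAut.conj g) t
  intro c hc
  have h3 : g * c * g⁻¹ ∈ centralizer {g * t * g⁻¹} := by
    rw [mem_centralizer_singleton_iff] at hc ⊢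
    calc g * c * g⁻¹ * (g * t * g⁻¹) = g * (c * t) * g⁻¹ := by group
      _ = g * t * g⁻¹ * (g * c * g⁻¹) := by rw [hc]; group
  obtain ⟨k, hk⟩ := mem_zpowers_iff.1 (cent_aux h2 h1 h3)
  refine mem_zpowers_iff.2 ⟨k, ?_⟩
  rw [conj_zpow] at hk
  have h4 : t ^ k = g⁻¹ * (g * t ^ k * g⁻¹) * g := by group
  rw [h4, hk]
  group

/-! ### The normalizer of a Sylow 11-subgroup -/

open Cfsg.Agent.H859.SylEleven (N)

theorem exists_R : ∃ R : Subgroup 𝒢, IsSyl 2 R N ∧ R ≤ H859.NU.hom.range ∧ Nat.card R = 16 := by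
  have f2 : Fact (Nat.Prime 2) := ⟨Nat.prime_two⟩
  obtain ⟨R, hR⟩ := exists_isSyl 2 H859.NU.hom.range
  obtain ⟨k, hk⟩ := IsPGroup.iff_card.1 hR.isPGroup
  have h1 := card_mul_relIndex hR.le
  rw [H859.SylEleven.card_range] at h1
  have h2 := hR.not_dvd
  have h3 : Nat.card R = 16 := by
    have h4 : k ≤ 5 := by
      by_contra h5
      have h6 : 2 ^ 6 ∣ 48 := (pow_dvd_pow 2 (by omega : 6 ≤ k)).trans (hk ▸ Dvd.intro _ h1)
      norm_num at h6
    rw [hk] at h1 ⊢
    interval_cases k <;> omega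
  refine ⟨R, ⟨hR.le.trans H859.SylEleven.hom_range_le, hR.isPGroup, fun hd => ?_⟩, hR.le, h3⟩
  have h4 := card_mul_relIndex (hR.le.trans H859.SylEleven.hom_range_le)
  rw [H859.SylEleven.card_N, h3] at h4
  obtain ⟨c, hc⟩ := hd
  rw [hc] at h4
  omega

/-- **2-subgroups of `N(U)`** -/
theorem two_group (D : Subgroup 𝒢) (hD : D ≤ N) (hD2 : IsPGroup 2 D) (a : 𝒢) (ha : a ∈ D) (b : 𝒢) (hb : b ∈ D)
    (hoa : orderOf a = 8) (hob : orderOf b = 8) : b ∈ zpowers a := by
  have f2 : Fact (Nat.Prime 2) := ⟨Nat.prime_two⟩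
  obtain ⟨R, hR, hRh, hRc⟩ := exists_R
  obtain ⟨x, -, hx⟩ := hR.exists_conj_le hD hD2
  have ha' : x * a * x⁻¹ ∈ R := hx ⟨a, ha, rfl⟩
  have hb' : x * b * x⁻¹ ∈ R := hx ⟨b, hb, rfl⟩
  obtain ⟨g, hg⟩ := hRh ha'
  obtain ⟨h, hh⟩ := hRh hb'
  have hg8 : orderOf g = 8 := by
    rw [← orderOf_injective H859.NU.hom H859.NU.hom_injective g, hg, ← hoa]
    exact MulEquiv.orderOf_eq (MulAut.conj x) a
  have hh8 : orderOf h = 8 := by
    rw [← orderOf_injective H859.NU.hom H859.NU.hom_injective h, hh, ← hob]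
    exact MulEquiv.orderOf_eq (MulAut.conj x) b
  have h16 : (g * h) ^ 16 = 1 := by
    apply H859.NU.hom_injective
    rw [map_pow, map_mul, hg, hh, map_one]
    have h1 : (⟨_, R.mul_mem ha' hb'⟩ : R) ^ Nat.card R = 1 := pow_card_eq_one'
    rw [hRc] at h1
    exact congrArg Subtype.val h1
  obtain ⟨k, hk⟩ := mem_zpowers_iff.1 (GLTwoThree.mem_zpowers hg8 hh8 h16)
  refine mem_zpowers_iff.2 ⟨k, ?_⟩
  have h1 := congrArg H859.NU.hom hk
  rw [map_zpow, hg, hh, conj_zpow] at h1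
  have h4 : a ^ k = x⁻¹ * (x * a ^ k * x⁻¹) * x := by group
  rw [h4, h1]
  group

end Cfsg.Agent.H733.JM.J4Forty
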